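import Cfsg.Agent.Comp.M11.Pres

set_option autoImplicit false
set_option maxRecDepth 100000

namespace Cfsg.Agent.Comp.M11
open Cfsg.Agent.Comp

noncomputable def n0 : Net :=
(Net.cons (nat_lit 0xa) (nat_lit 6)
(Net.cons (nat_lit 0x46) (nat_lit 3)
(Net.cons (nat_lit 0x48) (nat_lit 1)
(Net.cons (nat_lit 0x90) (nat_lit 1)
(Net.cons (nat_lit 0x40) (nat_lit 1)
(Net.cons (nat_lit 0x6) (nat_lit 6)
Net.nil))))))

noncomputable def n1 : Net :=
(Net.cons (nat_lit 0x6) (nat_lit 6)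
(Net.cons (nat_lit 0x40) (nat_lit 1)
(Net.cons (nat_lit 0x90) (nat_lit 1)
(Net.cons (nat_lit 0x48) (nat_lit 1)
(Net.cons (nat_lit 0x46) (nat_lit 3)
(Net.cons (nat_lit 0xa) (nat_lit 6)
Net.nil))))))

noncomputable def n2 : Net :=
(Net.cons (nat_lit 0x13) (nat_lit 6)
(Net.cons (nat_lit 0xc0) (nat_lit 3)
(Net.cons (nat_lit 0x82) (nat_lit 1)
(Net.cons (nat_lit 0x41) (nat_lit 1)
(Net.cons (nat_lit 0xc4) (nat_lit 3)
(Net.cons (nat_lit 0x1b) (nat_lit 6)
Net.nil))))))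

noncomputable def n3 : Net :=
(Net.cons (nat_lit 0x1b) (nat_lit 6)
(Net.cons (nat_lit 0xc4) (nat_lit 3)
(Net.cons (nat_lit 0x41) (nat_lit 1)
(Net.cons (nat_lit 0x82) (nat_lit 1)
(Net.cons (nat_lit 0xc0) (nat_lit 3)
(Net.cons (nat_lit 0x13) (nat_lit 6)
Net.nil))))))

noncomputable def n4 : Net :=
(Net.cons (nat_lit 0x4) (nat_lit 6)
(Net.cons (nat_lit 0x2) (nat_lit 3)
(Net.cons (nat_lit 0x8) (nat_lit 1)
(Net.cons (nat_lit 0x12) (nat_lit 1)
(Net.cons (nat_lit 0x8) (nat_lit 1)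
(Net.cons (nat_lit 0xc2) (nat_lit 3)
(Net.cons (nat_lit 0x4) (nat_lit 6)
Net.nil)))))))

noncomputable def n5 : Net :=
(Net.cons (nat_lit 0x6) (nat_lit 6)
(Net.cons (nat_lit 0x6) (nat_lit 3)
(Net.cons (nat_lit 0x8) (nat_lit 1)
(Net.cons (nat_lit 0x92) (nat_lit 1)
(Net.cons (nat_lit 0x8) (nat_lit 1)
(Net.cons (nat_lit 0x46) (nat_lit 3)
(Net.cons (nat_lit 0x6) (nat_lit 6)
Net.nil)))))))

noncomputable def n6 : Net :=
(Net.cons (nat_lit 0x18) (nat_lit 6)
(Net.cons (nat_lit 0x80) (nat_lit 3)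
(Net.cons (nat_lit 0x9) (nat_lit 1)
(Net.cons (nat_lit 0x92) (nat_lit 1)
(Net.cons (nat_lit 0x9) (nat_lit 1)
(Net.cons (nat_lit 0xc0) (nat_lit 3)
(Net.cons (nat_lit 0x18) (nat_lit 6)
Net.nil)))))))

noncomputable def T : List Net := [n0, n1, n2, n3, n4, n5, n6]

theorem ok : TOK 11 T := TOK_of_ok (by decide +kernel)

def E : List (List Nat × List Nat) :=
  []

theorem sat : Sat (sig T) R :=
  sat_of_relsP ok (by norm_num) (show relsP (nat_lit 11) (nat_lit 4) (nat_lit 0) (nat_lit 4) T R = true by decide +kernel)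

theorem eqs : ∀ e ∈ E, ev (sig T) e.1 = ev (sig T) e.2 := eqs_nil _

def lowW1 : List (List Nat) := [[0],
   [1],
   [2],
   [3],
   [4],
   [5]]

def lowW2 : List (List Nat) := [[0],
   [1],
   [2],
   [3],
   [4]]

def lowW3 : List (List Nat) := [[0],
   [1],
   [2],
   [3]]

theorem low_3 : 8 ≤ Nat.card (genW (sig T) lowW3) :=
  chain_step (W' := []) (b := 7) (n := 8) (m := 1) ok (le_of_subOK eqs (show subOK lowW3 [] E = true by decide +kernel)) (by decide +kernel)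
    (le_ncard_of_ivl (a := 2) ok (by norm_num) (show Nat.beq (grow T lowW3 [0, 2, 0, 0] (pt (nat_lit 7))) (ivl (nat_lit 2) (nat_lit 8)) = true by decide +kernel))
    (chain_base ok [])

theorem low_2 : 72 ≤ Nat.card (genW (sig T) lowW2) :=
  chain_step (W' := lowW3) (b := 10) (n := 9) (m := 8) ok (le_of_subOK eqs (show subOK lowW2 lowW3 E = true by decide +kernel)) (by decide +kernel)
    (le_ncard_of_ivl (a := 2) ok (by norm_num) (show Nat.beq (grow T lowW2 [4, 0, 2, 0, 0] (pt (nat_lit 10))) (ivl (nat_lit 2) (nat_lit 9)) = true by decide +kernel))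
    low_3

theorem low_1 : 720 ≤ Nat.card (genW (sig T) lowW1) :=
  chain_step (W' := lowW2) (b := 1) (n := 10) (m := 72) ok (le_of_subOK eqs (show subOK lowW1 lowW2 E = true by decide +kernel)) (by decide +kernel)
    (le_ncard_of_ivl (a := 1) ok (by norm_num) (show Nat.beq (grow T lowW1 [5, 0, 2, 5, 0, 4] (pt (nat_lit 1))) (ivl (nat_lit 1) (nat_lit 10)) = true by decide +kernel))
    low_2

theorem low : 7920 ≤ Nat.card (genW (sig T) (letters 7)) :=
  chain_step (W' := lowW1) (b := 0) (n := 11) (m := 720) ok (le_of_subOK eqs (show subOK (letters 7) lowW1 E = true by decide +kernel)) (by decide +kernel)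
    (le_ncard_of_ivl (a := 0) ok (by norm_num) (show Nat.beq (grow T (letters 7) [6, 0, 2, 5, 0, 4] (pt (nat_lit 0))) (ivl (nat_lit 0) (nat_lit 11)) = true by decide +kernel))
    low_1


end Cfsg.Agent.Comp.M11
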